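import Cfsg.Agent.H614.HE.Num
import Cfsg.Agent.H583.BR.Flag
import Cfsg.Agent.H199.PslAut
import Mathlib.GroupTheory.Sylow
import Mathlib.LinearAlgebra.Matrix.GeneralLinearGroup.Card

/-!
# S4933, row `PSL_n(q)`, `p ∣ q - 1` (helper614): the Sylow `p`-subgroups are abelian when `n < p`
-/

set_option autoImplicit false
set_option linter.unusedSectionVars false

namespace Cfsg.Agent.H614.HE

open scoped MatrixGroups Nat
open Matrix Finset Cfsg Cfsg.Agent.H583.BR Cfsg.Agent.H199.PslAut
open Cfsg.Agent.ClassicalGeometry.AutPSL.Root Cfsg.Agent.ClassicalGeometry.AutPSL.Auto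

universe u v

section

variable {F : Type v} [Field F] [Finite F] {n : ℕ} {p : ℕ} [hp : Fact p.Prime]

/-- the torus -/
noncomputable def tor (n : ℕ) (F : Type v) [Field F] : (Fin n → Fˣ) →* GL (Fin n) F where
  toFun := dg
  map_one' := by
    apply Units.ext
    rw [coe_dg]
    simp
  map_mul' := by
    intro x y
    apply Units.ext
    rw [Units.val_mul, coe_dg, coe_dg, coe_dg, diagonal_mul_diagonal]
    simp

omit [Finite F] in
theorem tor_injective : Function.Injective (tor n F) := by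
  intro x y h
  funext i
  apply Units.ext
  have h1 := congrArg (fun g : GL (Fin n) F => (g : Matrix (Fin n) (Fin n) F) i i) h
  change (dg x : GL (Fin n) F).1 i i = (dg y : GL (Fin n) F).1 i i at h1
  have h2 : ∀ x : Fin n → Fˣ, (dg x : GL (Fin n) F).1 i i = x i := fun x => by
    change (Matrix.diagonal fun i => (x i : F)) i i = _
    rw [diagonal_apply_eq]
  rwa [h2, h2] at h1

theorem card_tor : Nat.card (tor n F).range = (Nat.card F - 1) ^ n := by
  rw [Nat.card_congr (MonoidHom.ofInjective tor_injective).toEquiv.symm, Nat.card_fun, Nat.card_units, Nat.card_fin]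

theorem not_dvd_index (hpF : ¬ p ∣ Nat.card F) (hpq : p ∣ Nat.card F - 1) (hp2 : p ≠ 2) (hn : n < p) :
    ¬ p ∣ (tor n F).range.index := by
  have := Fintype.ofFinite F
  have hq : 1 < Nat.card F := by rw [Nat.card_eq_fintype_card]; exact Fintype.one_lt_card
  have h1 := (tor n F).range.card_mul_index
  have hc : Nat.card (GL (Fin n) F) = ∏ i : Fin n, (Nat.card F ^ n - Nat.card F ^ (i : ℕ)) := by
    rw [Matrix.card_GL_field, Nat.card_eq_fintype_card]
  have h2 : padicValNat p (Nat.card (GL (Fin n) F)) = n * padicValNat p (Nat.card F - 1) := by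
    rw [hc]
    have h3 : ∀ i : Fin n, padicValNat p (Nat.card F ^ n - Nat.card F ^ (i : ℕ)) = padicValNat p (Nat.card F - 1) ∧
        Nat.card F ^ n - Nat.card F ^ (i : ℕ) ≠ 0 := by
      intro i
      obtain ⟨k, hk⟩ : ∃ k, n = i.1 + k := ⟨n - i.1, by omega⟩
      have hk0 : k ≠ 0 := by
        have := i.2
        omega
      have h4 : Nat.card F ^ n - Nat.card F ^ (i : ℕ) = Nat.card F ^ (i : ℕ) * (Nat.card F ^ k - 1 ^ k) := by
        rw [Nat.mul_sub, one_pow, mul_one, ← pow_add, ← hk]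
      have h5 : 1 < Nat.card F ^ k := Nat.one_lt_pow hk0 hq
      have h6 : Nat.card F ^ k - 1 ^ k ≠ 0 := by rw [one_pow]; omega
      refine ⟨?_, ?_⟩
      · rw [h4, padicValNat.mul (pow_ne_zero _ (by omega)) h6, padicValNat.eq_zero_of_not_dvd (fun h => hpF (hp.out.dvd_of_dvd_pow h)),
          padicValNat.pow_sub_pow (hp.out.odd_of_ne_two hp2) hq hpq hpF hk0,
          padicValNat.eq_zero_of_not_dvd (n := k) (fun h => by
            have := Nat.le_of_dvd (Nat.pos_of_ne_zero hk0) h
            omega)]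
        omega
      · rw [h4]
        exact mul_ne_zero (pow_ne_zero _ (by omega)) h6
    have h7 : ∀ s : Finset (Fin n), padicValNat p (∏ i ∈ s, (Nat.card F ^ n - Nat.card F ^ (i : ℕ))) =
        s.card * padicValNat p (Nat.card F - 1) := by
      intro s
      classical
      induction s using Finset.induction_on with
      | empty => simp
      | insert i s hi ih =>
        rw [Finset.prod_insert hi, padicValNat.mul (h3 i).2 (Finset.prod_ne_zero_iff.2 fun i _ => (h3 i).2), (h3 i).1, ih,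
          Finset.card_insert_of_notMem hi]
        ring
    rw [h7, Finset.card_univ, Fintype.card_fin]
  have h3 : (tor n F).range.index ≠ 0 := Subgroup.index_ne_zero_of_finite
  have h4 := congrArg (padicValNat p) h1
  rw [padicValNat.mul Nat.card_pos.ne' h3, h2, card_tor, padicValNat.pow] at h4
  intro h5
  have h6 := one_le_padicValNat_of_dvd h3 h5
  omega

/-- a `p`-subgroup of `GL_n(q)` is abelian when `n < p` -/
theorem comm_of_lt (hpF : ¬ p ∣ Nat.card F) (hpq : p ∣ Nat.card F - 1) (hp2 : p ≠ 2) (hn : n < p)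
    (Q : Subgroup (GL (Fin n) F)) (hQ : IsPGroup p Q) : ∀ x ∈ Q, ∀ y ∈ Q, x * y = y * x := by
  have h1 : ¬ p ∣ Nat.card (GL (Fin n) F ⧸ (tor n F).range) := not_dvd_index hpF hpq hp2 hn
  obtain ⟨z, hz⟩ := hQ.nonempty_fixed_point_of_prime_not_dvd_card (GL (Fin n) F ⧸ (tor n F).range) h1
  obtain ⟨g, rfl⟩ := QuotientGroup.mk_surjective z
  have h2 : ∀ x ∈ Q, g⁻¹ * x * g ∈ (tor n F).range := by
    intro x hx
    have h3 := hz ⟨x, hx⟩
    change ((x * g : GL (Fin n) F) : GL (Fin n) F ⧸ (tor n F).range) = _ at h3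
    rw [eq_comm, QuotientGroup.eq] at h3
    rwa [mul_assoc]
  intro x hx y hy
  obtain ⟨a, ha⟩ := h2 x hx
  obtain ⟨b, hb⟩ := h2 y hy
  have h4 : g⁻¹ * x * g * (g⁻¹ * y * g) = g⁻¹ * y * g * (g⁻¹ * x * g) := by
    rw [← ha, ← hb, ← map_mul, ← map_mul, mul_comm]
  have h5 : g⁻¹ * (x * y) * g = g⁻¹ * (y * x) * g := by
    calc g⁻¹ * (x * y) * g = g⁻¹ * x * g * (g⁻¹ * y * g) := by group
      _ = _ := h4
      _ = g⁻¹ * (y * x) * g := by group
  exact mul_left_cancel (mul_right_cancel h5)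

/-- the Sylow `p`-subgroups of `PSL_n(q)` are abelian when `n < p` -/
theorem ab_of_lt (hpF : ¬ p ∣ Nat.card F) (hpq : p ∣ Nat.card F - 1) (hp2 : p ≠ 2) (hn : n < p)
    (P : Sylow p (ProjectiveSpecialLinearGroup (Fin n) F)) : IsMulCommutative P := by
  have := Fintype.ofFinite F
  obtain ⟨Q, hQ⟩ := Sylow.mapSurjective_surjective
    (f := (pr : SpecialLinearGroup (Fin n) F →* ProjectiveSpecialLinearGroup (Fin n) F)) pr_surjective p P
  have h1 := comm_of_lt hpF hpq hp2 hn ((Q : Subgroup (SpecialLinearGroup (Fin n) F)).map SpecialLinearGroup.toGL) (Q.2.map _)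
  refine ⟨⟨fun x y => ?_⟩⟩
  have hx : ∀ x : P, ∃ s ∈ (Q : Subgroup (SpecialLinearGroup (Fin n) F)), pr s = (x : ProjectiveSpecialLinearGroup (Fin n) F) := by
    intro x
    have h2 : (x : ProjectiveSpecialLinearGroup (Fin n) F) ∈ (Sylow.mapSurjective pr_surjective Q :
        Sylow p (ProjectiveSpecialLinearGroup (Fin n) F)) := hQ.symm ▸ x.2
    exact h2
  obtain ⟨s, hs, es⟩ := hx x
  obtain ⟨t, ht, et⟩ := hx y
  have h2 := h1 _ (Subgroup.mem_map_of_mem _ hs) _ (Subgroup.mem_map_of_mem _ ht)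
  rw [← map_mul, ← map_mul] at h2
  have h3 : s * t = t * s := by
    apply Subtype.ext
    exact congrArg (fun g : GL (Fin n) F => (g : Matrix (Fin n) (Fin n) F)) h2
  apply Subtype.ext
  rw [Subgroup.coe_mul, Subgroup.coe_mul, ← es, ← et, ← map_mul, ← map_mul, h3]

end

end Cfsg.Agent.H614.HE
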