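import Cfsg.Agent.H614.HE.Hom
import Mathlib.FieldTheory.Finite.Basic
import Mathlib.RingTheory.RootsOfUnity.Complex

/-!
# S4933, row `PSL_n(q)`, `p ∣ q - 1` (helper614): automorphisms of odd order modulo the inner diagonal ones
-/

set_option autoImplicit false
set_option linter.unusedSectionVars false

namespace Cfsg.Agent.H614.HE

open scoped MatrixGroups
open Matrix Finset Cfsg Cfsg.Agent.H583.BR Cfsg.Agent.H199.PslAut
open Cfsg.Agent.H139.Bruhat Cfsg.Agent.H139.BlockCount Cfsg.Agent.H139.FlagInner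
open Cfsg.Agent.ClassicalGeometry.AutPSL.Root Cfsg.Agent.ClassicalGeometry.AutPSL.Auto

universe u v

variable {F : Type v} [Field F] [Finite F] {n : ℕ}

omit [Finite F] in
theorem Psi_phi_pow (g : GL (Fin n) F) (σ : F ≃+* F) (m : ℕ) :
    ∃ g' : GL (Fin n) F, (Psi n F g * phi n F σ) ^ m = Psi n F g' * phi n F (σ ^ m) := by
  induction m with
  | zero => exact ⟨1, by rw [pow_zero, pow_zero, map_one, map_one, mul_one]⟩
  | succ m ih =>
    obtain ⟨g', e⟩ := ih
    exact ⟨_, by rw [pow_succ, e, Psi_phi_mul, pow_succ]⟩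

theorem form_of_pow (hn : 2 ≤ n) {α : MulAut (ProjectiveSpecialLinearGroup (Fin n) F)} {m : ℕ} (hm : Odd m)
    {s : GL (Fin n) F} (hα : α ^ m = Psi n F s) :
    ∃ (g : GL (Fin n) F) (σ : F ≃+* F), α = Psi n F g * phi n F σ ∧ σ ^ m = 1 := by
  have := Fintype.ofFinite F
  rcases exists_form hn α with ⟨g, σ, e⟩ | ⟨h3, g, σ, e⟩
  · refine ⟨g, σ, e, ?_⟩
    obtain ⟨g', e'⟩ := Psi_phi_pow g σ m
    rw [← e, hα] at e'
    have h1 : Psi n F s * phi n F 1 = Psi n F g' * phi n F (σ ^ m) := by rw [map_one, mul_one, e']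
    exact (Psi_phi_uniq hn h1).2.symm
  · exfalso
    obtain ⟨k, rfl⟩ := hm
    have h1 : α ^ 2 = Psi n F (g * mapGL σ (itGL g)) * phi n F (σ * σ) := by
      rw [pow_two, e, ← Psi_phi_mul]
      calc Psi n F g * phi n F σ * iot n F * (Psi n F g * phi n F σ * iot n F)
          = Psi n F g * phi n F σ * ((iot n F * Psi n F g) * phi n F σ * iot n F) := by
            simp only [mul_assoc]
        _ = Psi n F g * phi n F σ * (Psi n F (itGL g) * (iot n F * phi n F σ) * iot n F) := by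
            rw [iot_mul_Psi]; simp only [mul_assoc]
        _ = Psi n F g * phi n F σ * (Psi n F (itGL g) * phi n F σ * (iot n F * iot n F)) := by
            rw [iot_mul_phi]; simp only [mul_assoc]
        _ = _ := by rw [iot_mul_iot, mul_one]
    obtain ⟨g', e'⟩ := Psi_phi_pow (g * mapGL σ (itGL g)) (σ * σ) k
    rw [← h1, ← pow_mul] at e'
    rw [pow_succ, e', e, ← mul_assoc, Psi_phi_mul] at hα
    refine not_graph' h3 (g := s⁻¹ * (g' * mapGL ((σ * σ) ^ k) g)) (σ := (σ * σ) ^ k * σ) (τ := 1) ?_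
    rw [map_mul (Psi n F), map_inv, map_one, mul_assoc, mul_assoc, ← mul_assoc (Psi n F _), hα, inv_mul_cancel]

theorem θ_inv {p : ℕ} [Fact p.Prime] (θ : Fˣ →* ℂˣ) (hθ : ∀ u, θ u ^ p = 1) (σ : F ≃+* F) {k : ℕ}
    (hσ : σ ^ (p ^ k) = 1) (u : Fˣ) : θ (Units.map (σ : F →* F) u) = θ u := by
  have := Fintype.ofFinite F
  obtain ⟨g, hg⟩ := IsCyclic.exists_generator (α := Fˣ)
  obtain ⟨r, hr⟩ := (mem_powers_iff_mem_zpowers (x := g)).2 (hg (Units.map (σ : F →* F) g))
  have hr' : Units.map (σ : F →* F) g = g ^ r := hr.symm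
  have h1 : ∀ j : ℕ, Units.map ((σ ^ j : F ≃+* F) : F →* F) g = g ^ (r ^ j) := by
    intro j
    induction j with
    | zero =>
      rw [pow_zero, pow_zero, pow_one]
      exact Units.ext rfl
    | succ j ih =>
      have h2 : Units.map ((σ ^ (j + 1) : F ≃+* F) : F →* F) g =
          Units.map ((σ ^ j : F ≃+* F) : F →* F) (Units.map (σ : F →* F) g) := by
        apply Units.ext
        rw [pow_succ]
        rfl
      rw [h2, hr', map_pow, ih, ← pow_mul, pow_succ]
  have h2 := h1 (p ^ k)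
  rw [hσ] at h2
  have h3 : g ^ (r ^ (p ^ k)) = g := by
    rw [← h2]
    exact Units.ext rfl
  have h4 : θ g ^ r = θ g := by
    rcases (Nat.dvd_prime (Fact.out : p.Prime)).1 (orderOf_dvd_of_pow_eq_one (hθ g)) with h | h
    · rw [orderOf_eq_one_iff] at h
      rw [h, one_pow]
    · have h5 : θ g ^ (r ^ (p ^ k)) = θ g ^ 1 := by rw [← map_pow, h3, pow_one]
      rw [pow_eq_pow_iff_modEq, h, ← ZMod.natCast_eq_natCast_iff] at h5
      have h6 : θ g ^ r = θ g ^ 1 := by
        rw [pow_eq_pow_iff_modEq, h, ← ZMod.natCast_eq_natCast_iff, ← h5]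
        push_cast
        rw [ZMod.pow_card_pow]
      rw [h6, pow_one]
  obtain ⟨j, hj⟩ := (mem_powers_iff_mem_zpowers (x := g)).2 (hg u)
  have hj' : u = g ^ j := hj.symm
  rw [hj', map_pow, hr', map_pow, map_pow, map_pow, h4]

theorem exists_θ {m : ℕ} (hp : m ∣ Nat.card Fˣ) :
    ∃ θ : Fˣ →* ℂˣ, (∀ u, θ u ^ m = 1) ∧ ∃ ζ, orderOf (θ ζ) = m := by
  have := Fintype.ofFinite F
  have hpos : 0 < Nat.card Fˣ := Nat.card_pos
  have hm0 : m ≠ 0 := by
    rintro rfl
    have := zero_dvd_iff.1 hp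
    omega
  obtain ⟨g, hg⟩ := IsCyclic.exists_generator (α := Fˣ)
  have hgo : orderOf g = Nat.card Fˣ := orderOf_eq_card_of_forall_mem_zpowers hg
  obtain ⟨z, hz⟩ : ∃ z : ℂˣ, orderOf z = m := by
    have h1 := Complex.isPrimitiveRoot_exp m hm0
    refine ⟨(h1.isUnit hm0).unit, ?_⟩
    rw [← orderOf_units]
    exact h1.eq_orderOf.symm
  have hzg : orderOf z ∣ orderOf g := by rw [hz, hgo]; exact hp
  refine ⟨monoidHomOfForallMemZpowers hg hzg, ?_, g, ?_⟩
  · intro u
    obtain ⟨j, rfl⟩ := hg u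
    rw [map_zpow, monoidHomOfForallMemZpowers_apply_gen, ← zpow_natCast, ← _root_.zpow_mul, mul_comm, _root_.zpow_mul, zpow_natCast,
      ← hz, pow_orderOf_eq_one, _root_.one_zpow]
  · rw [monoidHomOfForallMemZpowers_apply_gen, hz]

end Cfsg.Agent.H614.HE
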