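import Cfsg.Agent.H614.HE.Mon
import Cfsg.Agent.H614.HE.Fld
import Cfsg.Agent.H649.Transport
import Mathlib.GroupTheory.Sylow

/-!
# S4933, row `PSL_n(q)`, `p ∣ q - 1` (helper614): the almost simple groups

* `pre` : for `A` with socle `N ≃* PSL_n(F)`, a Sylow `p`-subgroup `P` of `A`, a composition `a` and labels `l` with the
  numerical conditions, the characters `ξ` of `N ⊔ P` and `ψ` of `N` in the principal blocks, of degree the index of the
  parabolic subgroup of `GL_n(F)` of type `a`, with `ξ|N = ψ`.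
-/

set_option autoImplicit false
set_option linter.unusedSectionVars false

namespace Cfsg.Agent.H614.HE

open scoped MatrixGroups
open Matrix Finset Cfsg Cfsg.Agent.H583.BR Cfsg.Agent.H199.PslAut
open Cfsg.Agent.H139.Bruhat Cfsg.Agent.H139.BlockCount Cfsg.Agent.H139.FlagInner
open Cfsg.Agent.ClassicalGeometry.AutPSL.Root Cfsg.Agent.ClassicalGeometry.AutPSL.Auto

universe u v

theorem irrMap_mem {X : Type u} {Y : Type v} [Group X] [Group Y] (e : X ≃* Y) {M : Ideal AlgInt} {χ : IrrCharacter X}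
    (h : χ ∈ principalBlock M X) : H649.irrMap e χ ∈ principalBlock M Y := by
  rw [← H649.blkMap_principalBlock e]
  exact H649.irrMap_mem_blkMap.2 h

/-- every element of `N ⊔ P` has a power of exponent `p ^ k` in `N` -/
theorem exists_pow_mem {A : Type u} [Group A] [Finite A] {p : ℕ} [Fact p.Prime] (N : Subgroup A) [N.Normal]
    (P : Sylow p A) {x : A} (hx : x ∈ N ⊔ (P : Subgroup A)) : ∃ k : ℕ, x ^ (p ^ k) ∈ N := by
  obtain ⟨y, hy, z, hz, rfl⟩ := (Subgroup.mem_sup_of_normal_left).1 hx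
  obtain ⟨k, hk⟩ := P.2 ⟨z, hz⟩
  refine ⟨k, ?_⟩
  rw [← QuotientGroup.eq_one_iff, QuotientGroup.mk_pow, QuotientGroup.mk_mul, (QuotientGroup.eq_one_iff y).2 hy, one_mul,
    ← QuotientGroup.mk_pow]
  have h1 : z ^ p ^ k = 1 := congrArg Subtype.val hk
  rw [h1]
  rfl

section

variable {F : Type v} [Field F] [Finite F] {n : ℕ} {A : Type u} [Group A] [Finite A] {p : ℕ} [Fact p.Prime]

/-- the action of a subgroup on `PSL_n(F)` -/
noncomputable def kap {N : Subgroup A} [N.Normal] (e : N ≃* ProjectiveSpecialLinearGroup (Fin n) F) (H : Subgroup A) :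
    H →* MulAut (ProjectiveSpecialLinearGroup (Fin n) F) :=
  ((MulAut.congr e).toMonoidHom.comp MulAut.conjNormal).comp H.subtype

theorem kap_apply {N : Subgroup A} [N.Normal] (e : N ≃* ProjectiveSpecialLinearGroup (Fin n) F) (H : Subgroup A) {y : H}
    (hy : (y : A) ∈ N) : kap e H y = MulAut.conj (e ⟨y, hy⟩) := by
  apply MulEquiv.ext
  intro x
  obtain ⟨x, rfl⟩ := e.surjective x
  rw [MulAut.conj_apply, ← map_mul, ← map_inv, ← map_mul]
  change e (MulAut.conjNormal (y : A) (e.symm (e x))) = _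
  rw [e.symm_apply_apply]
  congr 1

/-- the data -/
noncomputable def mkDat (hn : 2 ≤ n) (hp2 : p ≠ 2) (N : Subgroup A) [N.Normal]
    (e : N ≃* ProjectiveSpecialLinearGroup (Fin n) F)
    (P : Sylow p A) (θ : Fˣ →* ℂˣ) (hθ : ∀ u, θ u ^ p = 1) (a : Fin n → ℕ) (ha : ∑ i, a i = n) (l : ℕ → ℕ)
    (hl : p ∣ ∑ i, l (compLabel a i)) : Dat n F ↥(N ⊔ (P : Subgroup A)) where
  hn := hn
  N := N.subgroupOf _
  κ := kap e _
  inn := by
    intro s
    refine ⟨⟨(e.symm (pr s) : N), le_sup_left (a := N) (e.symm (pr s)).2⟩, Subgroup.mem_subgroupOf.2 (e.symm (pr s)).2, ?_⟩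
    rw [kap_apply e (N ⊔ (P : Subgroup A))
      (y := ⟨(e.symm (pr s) : N), le_sup_left (a := N) (e.symm (pr s)).2⟩) (e.symm (pr s)).2]
    have h1 : (⟨((⟨(e.symm (pr s) : N), le_sup_left (a := N) (e.symm (pr s)).2⟩ : ↥(N ⊔ (P : Subgroup A))) : A),
      (e.symm (pr s)).2⟩ : N) = e.symm (pr s) := rfl
    rw [h1, e.apply_symm_apply]
    exact (Psi_coe s).symm
  out := by
    intro y hy
    rw [kap_apply e _ (Subgroup.mem_subgroupOf.1 hy)]
    obtain ⟨s, hs⟩ := pr_surjective (e ⟨(y : A), Subgroup.mem_subgroupOf.1 hy⟩)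
    exact ⟨s, by rw [← hs]; exact (Psi_coe s).symm⟩
  θ := θ
  form := by
    intro h
    obtain ⟨k, hk⟩ := exists_pow_mem N P h.2
    have h1 : (kap e _ h) ^ (p ^ k) = MulAut.conj (e ⟨_, hk⟩) := by
      rw [← map_pow, kap_apply e _ (y := h ^ (p ^ k)) hk]
      rfl
    obtain ⟨s, hs⟩ := pr_surjective (e ⟨_, hk⟩)
    rw [← hs, ← Psi_coe] at h1
    obtain ⟨g, σ, h2, h3⟩ := form_of_pow hn (((Fact.out : p.Prime).odd_of_ne_two hp2).pow) h1
    exact ⟨g, σ, h2, θ_inv θ hθ σ h3⟩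
  a := a
  ha := ha
  l := l
  hz := by
    intro u
    obtain ⟨m, hm⟩ := hl
    rw [hm, pow_mul, hθ, one_pow]

theorem pre (hn : 2 ≤ n) (hp2 : p ≠ 2) (hpq : p ∣ Nat.card F - 1) {M : Ideal AlgInt} (hM : IsPModular p M)
    (N : Subgroup A) [N.Normal] (e : N ≃* ProjectiveSpecialLinearGroup (Fin n) F)
    (P : Sylow p A) (a : Fin n → ℕ) (ha : ∑ i, a i = n) (l : ℕ → ℕ) (hl : p ∣ ∑ i, l (compLabel a i))
    (hsh : ∀ w : Equiv.Perm (Fin n), (∀ i j, ((l (compLabel a i) : ℕ) : ZMod p) + l (compLabel a (w j)) =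
      l (compLabel a j) + l (compLabel a (w i))) → ∀ i, compLabel a (w i) = compLabel a i) :
    ∃ (ξ : IrrCharacter ↥(N ⊔ (P : Subgroup A))) (ψ : IrrCharacter N), ξ ∈ principalBlock M ↥(N ⊔ (P : Subgroup A)) ∧
      ψ ∈ principalBlock M N ∧
      (∀ x : N, (ξ : ↥(N ⊔ (P : Subgroup A)) → ℂ) ⟨x, le_sup_left (a := N) x.2⟩ = (ψ : N → ℂ) x) ∧
      charDegree (ξ : ↥(N ⊔ (P : Subgroup A)) → ℂ) = (parabolicGL n F a).index ∧
      charDegree (ψ : N → ℂ) = (parabolicGL n F a).index := by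
  have := Fintype.ofFinite F
  obtain ⟨θ, hθ, ζ, hζ⟩ := exists_θ (F := F) (m := p) (by rwa [Nat.card_units])
  have key : ∃ (ξ : IrrCharacter ↥(N ⊔ (P : Subgroup A))) (ψ : IrrCharacter ↥(N.subgroupOf (N ⊔ (P : Subgroup A)))),
      ξ ∈ principalBlock M ↥(N ⊔ (P : Subgroup A)) ∧ ψ ∈ principalBlock M ↥(N.subgroupOf (N ⊔ (P : Subgroup A))) ∧
      (∀ x : ↥(N.subgroupOf (N ⊔ (P : Subgroup A))), (ξ : ↥(N ⊔ (P : Subgroup A)) → ℂ) x =
        (ψ : ↥(N.subgroupOf (N ⊔ (P : Subgroup A))) → ℂ) x) ∧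
      charDegree (ξ : ↥(N ⊔ (P : Subgroup A)) → ℂ) = (parabolicGL n F a).index ∧
      charDegree (ψ : ↥(N.subgroupOf (N ⊔ (P : Subgroup A))) → ℂ) = (parabolicGL n F a).index :=
    (mkDat hn hp2 N e P θ hθ a ha l hl).mono hM
      (inferInstanceAs (N.subgroupOf (N ⊔ (P : Subgroup A))).Normal) hζ hθ hsh
  obtain ⟨ξ, ψ, h1, h2, h3, h4, h5⟩ := key
  let f : ↥(N.subgroupOf (N ⊔ (P : Subgroup A))) ≃* N := Subgroup.subgroupOfEquivOfLe le_sup_left
  refine ⟨ξ, H649.irrMap f ψ, h1, irrMap_mem f h2, ?_, h4, ?_⟩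
  · intro x
    rw [H649.irrMap_apply]
    exact h3 (f.symm x)
  · rw [H649.charDegree_irrMap]
    exact h5

end

end Cfsg.Agent.H614.HE
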