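import Cfsg.Agent.H583.BR.Flag
import Cfsg.Agent.H199.PslAut

/-!
# S4933, row `PSL_n(q)`, `p ∣ q - 1` (helper614): products of powers of the diagonal block determinants

* `bdet b l A = ∏ k, det (A_k) ^ l k` for the diagonal blocks `A_k` of `A` with respect to the labelling `b`;
* `bdet_mul` : multiplicativity on block triangular matrices;
* `dHom` : the homomorphism `parabolicGL n F a →* Fˣ`.
-/

set_option autoImplicit false
set_option linter.unusedSectionVars false

namespace Cfsg.Agent.H614.HE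

open scoped MatrixGroups
open Matrix Finset Cfsg Cfsg.Agent.H583.BR Cfsg.Agent.H199.PslAut
open Cfsg.Agent.H139.Bruhat Cfsg.Agent.H139.BlockCount Cfsg.Agent.H139.FlagInner
open Cfsg.Agent.ClassicalGeometry.AutPSL.Root Cfsg.Agent.ClassicalGeometry.AutPSL.Auto

variable {F : Type*} [Field F] {n : ℕ}

/-- the product of the powers of the determinants of the diagonal blocks -/
noncomputable def bdet (b : Fin n → ℕ) (l : ℕ → ℕ) (A : Matrix (Fin n) (Fin n) F) : F :=
  ∏ k ∈ Finset.range n, (A.toSquareBlock b k).det ^ l k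

theorem toSquareBlock_mul (b : Fin n → ℕ) {A B : Matrix (Fin n) (Fin n) F} (hA : A.BlockTriangular b)
    (hB : B.BlockTriangular b) (k : ℕ) : (A * B).toSquareBlock b k = A.toSquareBlock b k * B.toSquareBlock b k := by
  ext i j
  rw [toSquareBlock_def, of_apply, mul_apply, mul_apply]
  have h1 : ∀ x : Fin n, b x ≠ k → A i x * B x j = 0 := by
    intro x hx
    rcases lt_or_gt_of_ne hx with h | h
    · rw [hA (by rw [i.2]; exact h), zero_mul]
    · rw [hB (by rw [j.2]; exact h), mul_zero]
  rw [← Finset.sum_filter_add_sum_filter_not univ (fun x : Fin n => b x = k)]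
  rw [Finset.sum_eq_zero (s := univ.filter fun x => ¬ b x = k) fun x hx => h1 x (Finset.mem_filter.1 hx).2, add_zero]
  rw [Finset.sum_subtype (p := fun x => b x = k) (univ.filter fun x : Fin n => b x = k)
    (fun x => by simp) (fun x => A i x * B x j)]
  rfl

theorem bdet_mul (b : Fin n → ℕ) (l : ℕ → ℕ) {A B : Matrix (Fin n) (Fin n) F} (hA : A.BlockTriangular b)
    (hB : B.BlockTriangular b) : bdet b l (A * B) = bdet b l A * bdet b l B := by
  rw [bdet, bdet, bdet, ← Finset.prod_mul_distrib]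
  refine Finset.prod_congr rfl fun k _ => ?_
  rw [toSquareBlock_mul b hA hB, det_mul, mul_pow]

theorem toSquareBlock_diagonal (b : Fin n → ℕ) (d : Fin n → F) (k : ℕ) :
    (Matrix.diagonal d).toSquareBlock b k = Matrix.diagonal (fun i : {i // b i = k} => d i) := by
  ext i j
  rw [toSquareBlock_def, of_apply, diagonal_apply, diagonal_apply]
  by_cases h : i = j
  · rw [if_pos h, if_pos (by rw [h])]
  · rw [if_neg h, if_neg (fun h' => h (Subtype.ext h'))]

theorem bdet_diagonal (b : Fin n → ℕ) (hb : ∀ i, b i < n) (l : ℕ → ℕ) (d : Fin n → F) :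
    bdet b l (Matrix.diagonal d) = ∏ i, d i ^ l (b i) := by
  rw [bdet]
  have h1 : ∀ k ∈ Finset.range n, ((Matrix.diagonal d).toSquareBlock b k).det ^ l k =
      ∏ i ∈ univ.filter (fun i => b i = k), d i ^ l (b i) := by
    intro k _
    rw [toSquareBlock_diagonal, det_diagonal, ← Finset.prod_pow]
    rw [Finset.prod_subtype (p := fun x => b x = k) (univ.filter fun x : Fin n => b x = k)
      (fun x => by simp) (fun x => d x ^ l (b x))]
    refine Finset.prod_congr rfl fun i _ => ?_
    rw [i.2]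
  rw [Finset.prod_congr rfl h1]
  exact Finset.prod_fiberwise_of_maps_to (fun i _ => Finset.mem_range.2 (hb i)) _

theorem bdet_one (b : Fin n → ℕ) (hb : ∀ i, b i < n) (l : ℕ → ℕ) : bdet b l (1 : Matrix (Fin n) (Fin n) F) = 1 := by
  rw [← diagonal_one, bdet_diagonal b hb]
  exact Finset.prod_eq_one fun i _ => one_pow _

theorem bdet_map (b : Fin n → ℕ) (l : ℕ → ℕ) (σ : F ≃+* F) (A : Matrix (Fin n) (Fin n) F) :
    bdet b l (A.map σ) = σ (bdet b l A) := by
  rw [bdet, bdet, map_prod]
  refine Finset.prod_congr rfl fun k _ => ?_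
  rw [map_pow]
  congr 1
  exact (RingEquiv.map_det σ (A.toSquareBlock b k)).symm

/-- the homomorphism on the parabolic subgroup -/
noncomputable def dHom (a : Fin n → ℕ) (ha : ∑ i, a i = n) (l : ℕ → ℕ) : parabolicGL n F a →* Fˣ :=
  MonoidHom.toHomUnits
    { toFun := fun g => bdet (compLabel a) l ((g : GL (Fin n) F) : Matrix (Fin n) (Fin n) F)
      map_one' := bdet_one _ (compLabel_lt a ha) l
      map_mul' := fun g h => bdet_mul _ l g.2 h.2 }

theorem coe_dHom (a : Fin n → ℕ) (ha : ∑ i, a i = n) (l : ℕ → ℕ) (g : parabolicGL n F a) :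
    (dHom a ha l g : F) = bdet (compLabel a) l ((g : GL (Fin n) F) : Matrix (Fin n) (Fin n) F) := rfl

theorem mapGL_mem (a : Fin n → ℕ) (σ : F ≃+* F) {g : GL (Fin n) F} (hg : g ∈ parabolicGL n F a) :
    mapGL σ g ∈ parabolicGL n F a := by
  intro i j h
  rw [coe_mapGL, map_apply, hg h, map_zero]

theorem dHom_map (a : Fin n → ℕ) (ha : ∑ i, a i = n) (l : ℕ → ℕ) (σ : F ≃+* F) (g : parabolicGL n F a) :
    dHom a ha l ⟨mapGL σ g, mapGL_mem a σ g.2⟩ = Units.map (σ : F →* F) (dHom a ha l g) := by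
  apply Units.ext
  rw [coe_dHom, Units.coe_map]
  exact bdet_map _ l σ _

theorem dHom_dg (a : Fin n → ℕ) (ha : ∑ i, a i = n) (l : ℕ → ℕ) (d : Fin n → Fˣ) :
    dHom a ha l ⟨dg d, dg_mem a d⟩ = ∏ i, d i ^ l (compLabel a i) := by
  apply Units.ext
  rw [coe_dHom, Units.coe_prod]
  change bdet _ l (Matrix.diagonal fun i => (d i : F)) = _
  rw [bdet_diagonal _ (compLabel_lt a ha)]
  exact Finset.prod_congr rfl fun i _ => rfl

theorem scal_eq_dg (u : Fˣ) : scal n F u = dg fun _ => u := by
  apply Units.ext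
  rw [coe_dg, coe_scal]
  rfl

end Cfsg.Agent.H614.HE
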