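import Cfsg.Agent.H614.HE.Row
import Cfsg.Agent.H614.HE.Ab
import Cfsg.Agent.H624.HT.RowOf

/-!
# S4933, row `PSL_n(q)`, `p ∣ q - 1` (helper614): the rows

* `psl_row` : `Row p (PSL_n(q))` for `p` odd, `p ∣ q - 1`, non-abelian Sylow `p`-subgroups, `(p, n) ≠ (3, 3)`.
-/

set_option autoImplicit false
set_option linter.unusedSectionVars false

namespace Cfsg.Agent.H614.HE

open Cfsg Cfsg.Agent.H316.HT Subgroup

/-- **the row `PSL_n(q)`, `p ∣ q - 1`**, `(p, n) ≠ (3, 3)` -/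
theorem psl_row (p : ℕ) [Fact p.Prime] (F : Type) [Field F] [Fintype F] (n : ℕ) (hp2 : p ≠ 2)
    (hn2 : 2 ≤ n) (hpF : ¬ p ∣ Fintype.card F) (hpq : p ∣ Fintype.card F - 1)
    (hab : ¬ ∀ P : Sylow p (Matrix.ProjectiveSpecialLinearGroup (Fin n) F), IsMulCommutative P)
    (h33 : ¬ (p = 3 ∧ n = 3)) : Row p (Matrix.ProjectiveSpecialLinearGroup (Fin n) F) := by
  rw [← Nat.card_eq_fintype_card] at hpF hpq
  have hn : p ≤ n := by
    by_contra h
    exact hab fun P => ab_of_lt hpF hpq hp2 (by omega) P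
  intro A _ _ N _ hN _ M hM P a ha _
  obtain ⟨e⟩ := hN
  obtain ⟨ξ, ψ, h1, h2, h3, h4, h5⟩ := exists_chars hn2 hp2 hn h33 hpq hM N e P
  have hdv : p ∣ charDegree (ψ : N → ℂ) := by
    refine Nat.dvd_of_factorization_pos ?_
    rw [h5]
    exact one_ne_zero
  refine H624.HT.goodOn_of hM N P ψ h2 (N ⊔ (P : Subgroup A)) rfl ξ ?_ ?_ (Or.inl hdv) ?_
  · intro _
    have h6 : (fun x : N => (ξ : ↥(N ⊔ (P : Subgroup A)) → ℂ) ⟨x, le_sup_left (a := N) x.2⟩) = (ψ : N → ℂ) := funext h3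
    rw [h6, Characters.Core.classInner_irr_self ψ.2]
    exact one_ne_zero
  · rw [vd, h4]
    exact ha
  · intro h
    rw [h] at hdv
    have h6 : charDegree (fun _ : N => (1 : ℂ)) = 1 := by
      unfold charDegree
      rw [Complex.one_re, Nat.floor_one]
    rw [h6] at hdv
    exact (Fact.out : p.Prime).one_lt.ne' (Nat.dvd_one.1 hdv)

/-- field `psl_e1` of `OddRows` -/
theorem psl_e1 (p : ℕ) [Fact p.Prime] (F : Type) [Field F] [Fintype F] (n : ℕ)
    [IsSimpleGroup (Matrix.ProjectiveSpecialLinearGroup (Fin n) F)] (hp2 : p ≠ 2) (hn2 : 2 ≤ n)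
    (hpF : ¬ p ∣ Fintype.card F) (hpq : p ∣ Fintype.card F - 1) (hpn : ¬ p ∣ n)
    (hab : ¬ ∀ P : Sylow p (Matrix.ProjectiveSpecialLinearGroup (Fin n) F), IsMulCommutative P) :
    Row p (Matrix.ProjectiveSpecialLinearGroup (Fin n) F) :=
  psl_row p F n hp2 hn2 hpF hpq hab fun h => hpn (by rw [h.1, h.2])

end Cfsg.Agent.H614.HE
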