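import Cfsg.Agent.H614.HE.Blk
import Cfsg.Agent.H112.HT.Ind

/-!
# S4933, row `PSL_n(q)`, `p ∣ q - 1` (helper614): the monomial characters of the almost simple groups

`H` acts on `PSL_n(F)` through `κ` by products of inner diagonal and field automorphisms, `N ⊴ H` acts as the inner
automorphisms.  For a composition `a`, labels `l` of the blocks and a linear character `θ` of `Fˣ` which is invariant under
the field automorphisms of `H`, the linear character `g ↦ θ (∏ det (g_k) ^ l k)` of the stabilizer `BH` of the standard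
flag is well defined (`lam`), and it induces irreducibly (`mackey`).
-/

set_option autoImplicit false
set_option linter.unusedSectionVars false

namespace Cfsg.Agent.H614.HE

open scoped MatrixGroups
open Matrix Finset Cfsg Cfsg.Agent.H583.BR Cfsg.Agent.H199.PslAut
open Cfsg.Agent.H139.Bruhat Cfsg.Agent.H139.BlockCount Cfsg.Agent.H139.FlagInner
open Cfsg.Agent.ClassicalGeometry.AutPSL.Root Cfsg.Agent.ClassicalGeometry.AutPSL.Auto

universe u v

variable {F : Type v} [Field F] {n : ℕ}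

theorem Psi_phi_mul (g h : GL (Fin n) F) (σ τ : F ≃+* F) :
    (Psi n F g * phi n F σ) * (Psi n F h * phi n F τ) = Psi n F (g * mapGL σ h) * phi n F (σ * τ) := by
  rw [mul_assoc, ← mul_assoc (phi n F σ), phi_mul_Psi, map_mul, map_mul]
  simp only [mul_assoc]

theorem Psi_phi_uniq (hn : 2 ≤ n) {g h : GL (Fin n) F} {σ τ : F ≃+* F}
    (e : Psi n F g * phi n F σ = Psi n F h * phi n F τ) : (∃ u : Fˣ, g = h * scal n F u) ∧ σ = τ := by
  have h1 : Psi n F (h⁻¹ * g) * phi n F σ = phi n F τ := by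
    rw [map_mul, map_inv, mul_assoc, e, inv_mul_cancel_left]
  obtain ⟨⟨u, hu⟩, h2⟩ := Psi_phi_eq hn h1
  exact ⟨⟨u, by rw [← hu, mul_inv_cancel_left]⟩, h2⟩

theorem scal_mem (a : Fin n → ℕ) (u : Fˣ) : scal n F u ∈ parabolicGL n F a := by
  rw [scal_eq_dg]
  exact dg_mem a _

theorem index_of_mul {H : Type u} [Group H] (N B : Subgroup H) (h : ∀ x : H, ∃ y ∈ N, ∃ b ∈ B, x = y * b) :
    B.index = (B.subgroupOf N).index := by
  rw [Subgroup.index, Subgroup.index]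
  refine (Nat.card_congr (Equiv.ofBijective
    (Quotient.map' (s₁ := QuotientGroup.leftRel (B.subgroupOf N)) (s₂ := QuotientGroup.leftRel B) (fun y : N => (y : H))
      ?_) ⟨?_, ?_⟩)).symm
  · intro x y hxy
    rw [QuotientGroup.leftRel_apply] at hxy ⊢
    exact hxy
  · intro x y
    refine Quotient.inductionOn₂' x y fun x y hxy => ?_
    have h1 := Quotient.exact' hxy
    rw [QuotientGroup.leftRel_apply] at h1
    apply Quotient.sound'
    rw [QuotientGroup.leftRel_apply]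
    exact h1
  · intro x
    refine Quotient.inductionOn' x fun x => ?_
    obtain ⟨y, hy, b, hb, e⟩ := h x
    refine ⟨Quotient.mk'' ⟨y, hy⟩, ?_⟩
    apply Quotient.sound'
    rw [QuotientGroup.leftRel_apply]
    change y⁻¹ * x ∈ B
    rw [e, inv_mul_cancel_left]
    exact hb

theorem conj_one' {X : Type*} {A : Type*} [Group X] [CommGroup A] (f : X →* A) (v x : X) :
    f (v⁻¹ * x * v) = f x := by
  rw [map_mul, map_mul, map_inv, mul_comm, mul_inv_cancel_left]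

theorem conj_two' {X : Type*} {A : Type*} [Group X] [CommGroup A] (f : X →* A) (v x : X) :
    f (v * x * v⁻¹) = f x := by
  rw [map_mul, map_mul, map_inv, mul_comm, inv_mul_cancel_left]

/-- the hypotheses -/
structure Dat (n : ℕ) (F : Type v) [Field F] (H : Type u) [Group H] where
  hn : 2 ≤ n
  N : Subgroup H
  κ : H →* MulAut (ProjectiveSpecialLinearGroup (Fin n) F)
  inn : ∀ s : SpecialLinearGroup (Fin n) F, ∃ y ∈ N, κ y = Psi n F (SpecialLinearGroup.toGL s)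
  out : ∀ y ∈ N, ∃ s : SpecialLinearGroup (Fin n) F, κ y = Psi n F (SpecialLinearGroup.toGL s)
  θ : Fˣ →* ℂˣ
  form : ∀ h, ∃ (g : GL (Fin n) F) (σ : F ≃+* F), κ h = Psi n F g * phi n F σ ∧
    ∀ u : Fˣ, θ (Units.map (σ : F →* F) u) = θ u
  a : Fin n → ℕ
  ha : ∑ i, a i = n
  l : ℕ → ℕ
  hz : ∀ u : Fˣ, θ u ^ (∑ i, l (compLabel a i)) = 1

namespace Dat

variable {H : Type u} [Group H] (D : Dat n F H)

theorem inv_of {h : H} {g : GL (Fin n) F} {σ : F ≃+* F} (e : D.κ h = Psi n F g * phi n F σ) (u : Fˣ) :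
    D.θ (Units.map (σ : F →* F) u) = D.θ u := by
  obtain ⟨g', σ', e', h'⟩ := D.form h
  obtain ⟨-, rfl⟩ := Psi_phi_uniq D.hn (e.symm.trans e')
  exact h' u

/-- the stabilizer of the standard flag -/
def BH : Subgroup H where
  carrier := {h | ∃ (g : GL (Fin n) F) (σ : F ≃+* F), g ∈ parabolicGL n F D.a ∧ D.κ h = Psi n F g * phi n F σ}
  mul_mem' := by
    rintro x y ⟨g, σ, hg, e⟩ ⟨g', σ', hg', e'⟩
    refine ⟨g * mapGL σ g', σ * σ', mul_mem hg (mapGL_mem _ σ hg'), ?_⟩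
    rw [map_mul, e, e', Psi_phi_mul]
  one_mem' := ⟨1, 1, one_mem _, by rw [map_one, map_one, map_one, mul_one]⟩
  inv_mem' := by
    rintro x ⟨g, σ, hg, e⟩
    refine ⟨mapGL σ⁻¹ g⁻¹, σ⁻¹, mapGL_mem _ _ (inv_mem hg), ?_⟩
    rw [map_inv, e, _root_.mul_inv_rev, ← map_inv, ← map_inv, phi_mul_Psi]

theorem mem_BH {h : H} : h ∈ D.BH ↔
    ∃ (g : GL (Fin n) F) (σ : F ≃+* F), g ∈ parabolicGL n F D.a ∧ D.κ h = Psi n F g * phi n F σ := Iff.rfl

theorem θ_uniq {g g' : GL (Fin n) F} {σ σ' : F ≃+* F} (hg : g ∈ parabolicGL n F D.a) (hg' : g' ∈ parabolicGL n F D.a)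
    (e : Psi n F g * phi n F σ = Psi n F g' * phi n F σ') :
    D.θ (dHom D.a D.ha D.l ⟨g, hg⟩) = D.θ (dHom D.a D.ha D.l ⟨g', hg'⟩) := by
  obtain ⟨⟨u, hu⟩, -⟩ := Psi_phi_uniq D.hn e
  have h1 : (⟨g, hg⟩ : parabolicGL n F D.a) = ⟨g', hg'⟩ * ⟨dg fun _ => u, dg_mem _ _⟩ :=
    Subtype.ext (by change g = g' * dg fun _ => u; rw [hu, scal_eq_dg])
  rw [h1, map_mul (dHom D.a D.ha D.l), map_mul D.θ, dHom_dg, map_prod]
  have h2 : ∏ i, D.θ (u ^ D.l (compLabel D.a i)) = 1 := by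
    simp only [map_pow]
    rw [Finset.prod_pow_eq_pow_sum, D.hz]
  rw [h2, mul_one]

/-- the function -/
noncomputable def lamF (h : D.BH) : ℂˣ := D.θ (dHom D.a D.ha D.l ⟨h.2.choose, h.2.choose_spec.choose_spec.1⟩)

theorem lamF_eq {h : D.BH} {g : GL (Fin n) F} {σ : F ≃+* F} (hg : g ∈ parabolicGL n F D.a)
    (e : D.κ h = Psi n F g * phi n F σ) : D.lamF h = D.θ (dHom D.a D.ha D.l ⟨g, hg⟩) := by
  have h' := h.2.choose_spec.choose_spec
  exact D.θ_uniq h'.1 hg (h'.2.symm.trans e)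

/-- the linear character of the stabilizer -/
noncomputable def lam : D.BH →* ℂˣ where
  toFun := D.lamF
  map_one' := by
    rw [D.lamF_eq (g := 1) (σ := 1) (one_mem _) (by rw [OneMemClass.coe_one, map_one, map_one, map_one, mul_one])]
    have h1 : (⟨1, one_mem _⟩ : parabolicGL n F D.a) = 1 := rfl
    rw [h1, map_one, map_one]
  map_mul' := by
    intro x y
    obtain ⟨g, σ, hg, e⟩ := x.2
    obtain ⟨g', σ', hg', e'⟩ := y.2
    rw [D.lamF_eq (g := g * mapGL σ g') (σ := σ * σ') (mul_mem hg (mapGL_mem _ σ hg'))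
      (by rw [Subgroup.coe_mul, map_mul, e, e', Psi_phi_mul]), D.lamF_eq hg e, D.lamF_eq hg' e']
    have h1 : (⟨g * mapGL σ g', mul_mem hg (mapGL_mem _ σ hg')⟩ : parabolicGL n F D.a) =
      ⟨g, hg⟩ * ⟨_, mapGL_mem _ σ hg'⟩ := rfl
    have h2 := dHom_map D.a D.ha D.l σ ⟨g', hg'⟩
    rw [h1, map_mul (dHom D.a D.ha D.l), map_mul D.θ, h2, D.inv_of e]

theorem lam_eq {h : D.BH} {g : GL (Fin n) F} {σ : F ≃+* F} (hg : g ∈ parabolicGL n F D.a)
    (e : D.κ h = Psi n F g * phi n F σ) : D.lam h = D.θ (dHom D.a D.ha D.l ⟨g, hg⟩) := D.lamF_eq hg e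

theorem lam_pow {k : ℕ} (h : ∀ u, D.θ u ^ k = 1) : D.lam ^ k = 1 := by
  ext x
  rw [MonoidHom.pow_apply]
  exact congrArg Units.val (h _)

/-- `H = N B` -/
theorem exists_mul (x : H) : ∃ y ∈ D.N, ∃ b ∈ D.BH, x = y * b := by
  obtain ⟨g, σ, e, -⟩ := D.form x
  have hn := D.hn
  obtain ⟨d, hd⟩ := exists_prod_eq (F := F) (n := n) (by omega) (GeneralLinearGroup.det g)
  obtain ⟨s, hs⟩ := exists_toGL (g := g * (dg d)⁻¹) (by rw [map_mul, map_inv, det_dg, hd, mul_inv_cancel])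
  obtain ⟨y, hy, ey⟩ := D.inn s
  refine ⟨y, hy, y⁻¹ * x, ⟨dg d, σ, dg_mem _ _, ?_⟩, by rw [mul_inv_cancel_left]⟩
  rw [map_mul, map_inv, ey, e, hs, map_mul, map_inv, _root_.mul_inv_rev, inv_inv]
  simp only [mul_assoc, inv_mul_cancel_left]

theorem inner_mem {y : H} (s : SpecialLinearGroup (Fin n) F) (hs : D.κ y = Psi n F (SpecialLinearGroup.toGL s)) :
    y ∈ D.BH ↔ SpecialLinearGroup.toGL s ∈ parabolicGL n F D.a := by
  constructor
  · rintro ⟨g, σ, hg, e⟩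
    have h1 : Psi n F (SpecialLinearGroup.toGL s) * phi n F 1 = Psi n F g * phi n F σ := by
      rw [← e, hs, map_one, mul_one]
    obtain ⟨⟨u, hu⟩, -⟩ := Psi_phi_uniq D.hn h1
    rw [hu]
    exact mul_mem hg (scal_mem _ _)
  · intro h
    exact ⟨_, 1, h, by rw [hs, map_one, mul_one]⟩

/-- **Mackey's criterion** -/
theorem mackey {p : ℕ} {ζ : Fˣ} (hζ : orderOf (D.θ ζ) = p)
    (hsh : ∀ w : Equiv.Perm (Fin n), (∀ i j, ((D.l (compLabel D.a i) : ℕ) : ZMod p) + D.l (compLabel D.a (w j)) =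
      D.l (compLabel D.a j) + D.l (compLabel D.a (w i))) → ∀ i, compLabel D.a (w i) = compLabel D.a i)
    (h : H) (hh : ∀ x y : D.BH, (x : H) ∈ D.N → (y : H) ∈ D.N → (y : H) = h * x * h⁻¹ → D.lam x = D.lam y)
    (hNn : D.N.Normal) : h ∈ D.BH := by
  obtain ⟨g, σ, e, hσ⟩ := D.form h
  obtain ⟨u, hu, w, v, hv, eg⟩ := bruhat g
  have key : ∀ d : Fin n → Fˣ, ∏ i, d i = 1 →
      D.θ (∏ i, d i ^ D.l (compLabel D.a i)) = D.θ (∏ i, d (w i) ^ D.l (compLabel D.a i)) := by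
    intro d hd
    obtain ⟨s, hs⟩ := exists_toGL (g := u * dg d * u⁻¹) (by
      rw [map_mul, map_mul, map_inv, det_dg, hd, mul_one, mul_inv_cancel])
    obtain ⟨y, hy, ey⟩ := D.inn s
    have hu' := upper_le D.a hu
    have hv' := upper_le D.a hv
    have hyB : y ∈ D.BH := by
      rw [D.inner_mem s ey, hs]
      exact mul_mem (mul_mem hu' (dg_mem _ _)) (inv_mem hu')
    have ex : D.κ (h⁻¹ * y * h) = Psi n F (mapGL σ⁻¹ (v⁻¹ * dg (fun i => d (w i)) * v)) * phi n F 1 := by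
      rw [map_one, mul_one, map_mul, map_mul, map_inv, e, ey, hs, _root_.mul_inv_rev, ← map_inv, ← map_inv]
      have h1 : g⁻¹ * (u * dg d * u⁻¹) * g = v⁻¹ * dg (fun i => d (w i)) * v := by
        have h2 := dg_mul_perm (F := F) d w
        rw [eg]
        calc (u * permGL F n w * v)⁻¹ * (u * dg d * u⁻¹) * (u * permGL F n w * v)
            = v⁻¹ * (permGL F n w)⁻¹ * (dg d * permGL F n w) * v := by group
          _ = _ := by rw [h2]; group
      calc phi n F σ⁻¹ * Psi n F g⁻¹ * Psi n F (u * dg d * u⁻¹) * (Psi n F g * phi n F σ)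
          = phi n F σ⁻¹ * Psi n F (g⁻¹ * (u * dg d * u⁻¹) * g) * phi n F σ := by
            rw [map_mul (Psi n F) (g⁻¹ * (u * dg d * u⁻¹)), map_mul (Psi n F) g⁻¹]
            group
        _ = _ := by
            rw [h1, phi_mul_Psi, mul_assoc, ← map_mul, inv_mul_cancel, map_one, mul_one]
    have hxp : mapGL σ⁻¹ (v⁻¹ * dg (fun i => d (w i)) * v) ∈ parabolicGL n F D.a :=
      mapGL_mem _ _ (mul_mem (mul_mem (inv_mem hv') (dg_mem _ _)) hv')
    have hxB : h⁻¹ * y * h ∈ D.BH := ⟨_, 1, hxp, ex⟩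
    have hxN : h⁻¹ * y * h ∈ D.N := by
      have := hNn.conj_mem y hy h⁻¹
      rwa [inv_inv] at this
    have h3 := hh ⟨_, hxB⟩ ⟨y, hyB⟩ hxN hy (by simp only; group)
    have ey' : D.κ y = Psi n F (u * dg d * u⁻¹) * phi n F 1 := by rw [ey, hs, map_one, mul_one]
    rw [D.lam_eq (h := ⟨_, hxB⟩) hxp ex, D.lam_eq (h := ⟨y, hyB⟩)
      (mul_mem (mul_mem hu' (dg_mem _ _)) (inv_mem hu')) ey'] at h3
    have h4 : D.θ (dHom D.a D.ha D.l ⟨_, hxp⟩) = D.θ (∏ i, d (w i) ^ D.l (compLabel D.a i)) := by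
      have h5 : ∀ z : Fˣ, D.θ (Units.map ((σ⁻¹ : F ≃+* F) : F →* F) z) = D.θ z := by
        intro z
        rw [← hσ (Units.map ((σ⁻¹ : F ≃+* F) : F →* F) z)]
        congr 1
        apply Units.ext
        change σ (σ⁻¹ (z : F)) = z
        exact σ.apply_symm_apply _
      have h6 := dHom_map D.a D.ha D.l σ⁻¹ ⟨_, mul_mem (mul_mem (inv_mem hv') (dg_mem D.a (fun i => d (w i)))) hv'⟩
      rw [h6, h5]
      have h7 : (⟨_, mul_mem (mul_mem (inv_mem hv') (dg_mem D.a (fun i => d (w i)))) hv'⟩ : parabolicGL n F D.a) =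
        ⟨v, hv'⟩⁻¹ * ⟨_, dg_mem D.a (fun i => d (w i))⟩ * ⟨v, hv'⟩ := rfl
      rw [h7, conj_one', dHom_dg]
    have h5 : D.θ (dHom D.a D.ha D.l ⟨_, mul_mem (mul_mem hu' (dg_mem D.a d)) (inv_mem hu')⟩) =
        D.θ (∏ i, d i ^ D.l (compLabel D.a i)) := by
      have h7 : (⟨_, mul_mem (mul_mem hu' (dg_mem D.a d)) (inv_mem hu')⟩ : parabolicGL n F D.a) =
        ⟨u, hu'⟩ * ⟨_, dg_mem D.a d⟩ * ⟨u, hu'⟩⁻¹ := rfl
      rw [h7, conj_two', dHom_dg]
    rw [h4, h5] at h3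
    exact h3.symm
  have hlab := hsh w⁻¹ (by
    intro i j
    by_cases hij : i = j
    · rw [hij, add_comm]
    have h1 := key (Pi.mulSingle i ζ * Pi.mulSingle j ζ⁻¹) (by
      simp only [Pi.mul_apply]
      rw [Finset.prod_mul_distrib, Finset.prod_eq_single i, Finset.prod_eq_single j, Pi.mulSingle_eq_same,
        Pi.mulSingle_eq_same, mul_inv_cancel]
      · intro k _ hk
        rw [Pi.mulSingle_eq_of_ne hk]
      · exact fun h => absurd (Finset.mem_univ _) h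
      · intro k _ hk
        rw [Pi.mulSingle_eq_of_ne hk]
      · exact fun h => absurd (Finset.mem_univ _) h)
    have h2 : ∀ f : Fin n → ℕ, ∏ k, (Pi.mulSingle i ζ * Pi.mulSingle j ζ⁻¹ : Fin n → Fˣ) k ^ f k = ζ ^ f i * (ζ⁻¹) ^ f j := by
      intro f
      simp only [Pi.mul_apply, mul_pow]
      rw [Finset.prod_mul_distrib, Finset.prod_eq_single i, Finset.prod_eq_single j, Pi.mulSingle_eq_same,
        Pi.mulSingle_eq_same]
      · intro k _ hk
        rw [Pi.mulSingle_eq_of_ne hk, one_pow]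
      · exact fun h => absurd (Finset.mem_univ _) h
      · intro k _ hk
        rw [Pi.mulSingle_eq_of_ne hk, one_pow]
      · exact fun h => absurd (Finset.mem_univ _) h
    have h3 : ∀ f : Fin n → Fˣ, ∏ k, f (w k) ^ D.l (compLabel D.a k) = ∏ k, f k ^ D.l (compLabel D.a (w⁻¹ k)) := by
      intro f
      rw [← Equiv.prod_comp w (fun k => f k ^ D.l (compLabel D.a (w⁻¹ k)))]
      refine Finset.prod_congr rfl fun k _ => ?_
      rw [show w⁻¹ (w k) = k from w.symm_apply_apply k]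
    rw [h3, h2, h2] at h1
    simp only [map_mul, map_pow, map_inv] at h1
    have h4 : D.θ ζ ^ (D.l (compLabel D.a i) + D.l (compLabel D.a (w⁻¹ j))) =
        D.θ ζ ^ (D.l (compLabel D.a j) + D.l (compLabel D.a (w⁻¹ i))) := by
      rw [inv_pow, inv_pow, ← div_eq_mul_inv, ← div_eq_mul_inv, div_eq_div_iff_mul_eq_mul, ← pow_add, ← pow_add] at h1
      rw [h1, add_comm]
    rw [pow_eq_pow_iff_modEq, hζ] at h4
    have h5 := (ZMod.natCast_eq_natCast_iff _ _ _).2 h4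
    push_cast at h5
    exact h5)
  refine ⟨g, σ, ?_, e⟩
  rw [eg]
  refine mul_mem (mul_mem (upper_le D.a hu) ?_) (upper_le D.a hv)
  refine permGL_mem D.a ?_
  intro i
  have := hlab (w i)
  rw [show w⁻¹ (w i) = i from w.symm_apply_apply i] at this
  exact this.symm

end Dat

end Cfsg.Agent.H614.HE
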