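import Cfsg.Agent.H614.HE.Hom
import Cfsg.Agent.CharactersDeep.MaxInduced

/-!
# S4933, row `PSL_n(q)`, `p ∣ q - 1` (helper614): the characters

* `Dat.mono` : the induced characters of `H` and of `N`, their degree is the index of the parabolic subgroup of `GL_n(F)`.
-/

set_option autoImplicit false
set_option linter.unusedSectionVars false

namespace Cfsg.Agent.H614.HE

open scoped MatrixGroups
open Matrix Finset Cfsg Cfsg.Agent.H583.BR Cfsg.Agent.H199.PslAut
open Cfsg.Agent.H139.Bruhat Cfsg.Agent.H139.BlockCount Cfsg.Agent.H139.FlagInner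
open Cfsg.Agent.ClassicalGeometry.AutPSL.Root Cfsg.Agent.ClassicalGeometry.AutPSL.Auto

universe u v

theorem index_eq_of {X Y : Type*} [Group X] [Group Y] (A : Subgroup X) (B : Subgroup Y) (f : X → Y)
    (hf : ∀ x x', x⁻¹ * x' ∈ A ↔ (f x)⁻¹ * f x' ∈ B) (hs : ∀ y, ∃ x, (f x)⁻¹ * y ∈ B) : A.index = B.index := by
  rw [Subgroup.index, Subgroup.index]
  refine Nat.card_congr (Equiv.ofBijective
    (Quotient.map' (s₁ := QuotientGroup.leftRel A) (s₂ := QuotientGroup.leftRel B) f ?_) ⟨?_, ?_⟩)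
  · intro x y hxy
    rw [QuotientGroup.leftRel_apply] at hxy ⊢
    exact (hf x y).1 hxy
  · intro x y
    refine Quotient.inductionOn₂' x y fun x y hxy => ?_
    have h1 := Quotient.exact' hxy
    rw [QuotientGroup.leftRel_apply] at h1
    apply Quotient.sound'
    rw [QuotientGroup.leftRel_apply]
    exact (hf x y).2 h1
  · intro y
    refine Quotient.inductionOn' y fun y => ?_
    obtain ⟨x, hx⟩ := hs y
    refine ⟨Quotient.mk'' x, ?_⟩
    apply Quotient.sound'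
    rw [QuotientGroup.leftRel_apply]
    exact hx

namespace Dat

variable {F : Type v} [Field F] {n : ℕ} {H : Type u} [Group H] (D : Dat n F H)

theorem mem_iff {y : H} {g : GL (Fin n) F} {σ : F ≃+* F} (e : D.κ y = Psi n F g * phi n F σ) :
    y ∈ D.BH ↔ g ∈ parabolicGL n F D.a := by
  constructor
  · rintro ⟨g', σ', hg, e'⟩
    obtain ⟨⟨u, hu⟩, -⟩ := Psi_phi_uniq D.hn (e.symm.trans e')
    rw [hu]
    exact mul_mem hg (scal_mem _ _)
  · exact fun h => ⟨g, σ, h, e⟩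

theorem exists_f (g : GL (Fin n) F) : ∃ (y : H) (d : Fin n → Fˣ), D.κ y = Psi n F (g * (dg d)⁻¹) := by
  have hn := D.hn
  obtain ⟨d, hd⟩ := exists_prod_eq (F := F) (n := n) (by omega) (GeneralLinearGroup.det g)
  obtain ⟨s, hs⟩ := exists_toGL (g := g * (dg d)⁻¹) (by rw [map_mul, map_inv, det_dg, hd, mul_inv_cancel])
  obtain ⟨y, -, ey⟩ := D.inn s
  exact ⟨y, d, by rw [ey, hs]⟩

theorem index_BH : D.BH.index = (parabolicGL n F D.a).index := by
  symm
  choose f d hf using D.exists_f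
  refine index_eq_of _ _ f (fun x x' => ?_) (fun y => ?_)
  · have h1 : D.κ ((f x)⁻¹ * f x') = Psi n F (dg (d x) * (x⁻¹ * x') * (dg (d x'))⁻¹) * phi n F 1 := by
      rw [map_mul, map_inv, hf, hf, map_one, mul_one, ← map_inv, ← map_mul]
      congr 1
      group
    rw [D.mem_iff h1, Subgroup.mul_mem_cancel_right _ (inv_mem (dg_mem D.a (d x'))),
      Subgroup.mul_mem_cancel_left _ (dg_mem D.a (d x))]
  · obtain ⟨g, σ, e, -⟩ := D.form y
    refine ⟨g, ?_⟩
    have h1 : D.κ ((f g)⁻¹ * y) = Psi n F (dg (d g)) * phi n F σ := by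
      rw [map_mul, map_inv, hf, e, map_mul, map_inv, _root_.mul_inv_rev, inv_inv, mul_assoc, inv_mul_cancel_left]
    rw [D.mem_iff h1]
    exact dg_mem _ _

theorem sup_eq : D.N ⊔ D.BH = ⊤ := by
  rw [eq_top_iff]
  intro x _
  obtain ⟨y, hy, b, hb, rfl⟩ := D.exists_mul x
  exact Subgroup.mul_mem_sup hy hb

/-- the linear character on `N ∩ B` -/
noncomputable def lamN : D.BH.subgroupOf D.N →* ℂˣ :=
  D.lam.comp
    { toFun := fun x => ⟨((x : D.N) : H), Subgroup.mem_subgroupOf.1 x.2⟩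
      map_one' := rfl
      map_mul' := fun _ _ => rfl }

theorem mono [Finite H] {p : ℕ} [Fact p.Prime] {M : Ideal AlgInt} (hM : IsPModular p M) (hNn : D.N.Normal)
    {ζ : Fˣ} (hζ : orderOf (D.θ ζ) = p) (hθ : ∀ u, D.θ u ^ p = 1)
    (hsh : ∀ w : Equiv.Perm (Fin n), (∀ i j, ((D.l (compLabel D.a i) : ℕ) : ZMod p) + D.l (compLabel D.a (w j)) =
      D.l (compLabel D.a j) + D.l (compLabel D.a (w i))) → ∀ i, compLabel D.a (w i) = compLabel D.a i) :
    ∃ (ξ : IrrCharacter H) (ψ : IrrCharacter D.N), ξ ∈ principalBlock M H ∧ ψ ∈ principalBlock M D.N ∧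
      (∀ x : D.N, (ξ : H → ℂ) x = (ψ : D.N → ℂ) x) ∧ charDegree (ξ : H → ℂ) = (parabolicGL n F D.a).index ∧
      charDegree (ψ : D.N → ℂ) = (parabolicGL n F D.a).index := by
  classical
  have := Fintype.ofFinite H
  have := Fintype.ofFinite D.N
  have hp1 : ∀ x : D.BH, D.lam x ^ p = 1 := fun x => hθ _
  obtain ⟨ξ, hξ, e1, e2⟩ := Cfsg.Agent.H112.HT.exists_mackey hM D.BH D.lam
    ⟨1, by ext x; rw [pow_one, MonoidHom.pow_apply, hp1]; rfl⟩
    (fun g hg => D.mackey hζ hsh g (fun x y _ _ h => hg x y h) hNn)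
  obtain ⟨ψ, hψ, e3, e4⟩ := Cfsg.Agent.H112.HT.exists_mackey hM (D.BH.subgroupOf D.N) D.lamN
    ⟨1, by
      ext x
      rw [pow_one, MonoidHom.pow_apply]
      change ((D.lam _ ^ p : ℂˣ) : ℂ) = _
      rw [hp1]
      rfl⟩
    (fun g hg => by
      rw [Subgroup.mem_subgroupOf]
      refine D.mackey hζ hsh (g : H) (fun x y hx hy h => ?_) hNn
      exact hg ⟨⟨x, hx⟩, Subgroup.mem_subgroupOf.2 x.2⟩ ⟨⟨y, hy⟩, Subgroup.mem_subgroupOf.2 y.2⟩ (Subtype.ext h))
  refine ⟨ξ, ψ, hξ, hψ, fun x => ?_, ?_, ?_⟩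
  · rw [e1, e3]
    have h1 : IsClassFunction D.BH (fun h : D.BH => ((D.lam h : ℂˣ) : ℂ)) := by
      intro x y
      exact congrArg (fun z : ℂˣ => (z : ℂ)) (conj_two' D.lam y x)
    exact Cfsg.Agent.CharactersDeep.MaxInduced.indFun_restrict D.N D.BH D.sup_eq _ h1 x
  · rw [e2, D.index_BH]
  · rw [e4, ← index_of_mul D.N D.BH D.exists_mul, D.index_BH]

end Dat

end Cfsg.Agent.H614.HE
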