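import Cfsg.Agent.H614.HE.Asm
import Cfsg.Agent.H614.HE.Num
import Cfsg.Agent.H316.HT.Defs

/-!
# S4933, row `PSL_n(q)`, `p ∣ q - 1` (helper614): the characters exist when `n ≥ p`, `(p, n) ≠ (3, 3)`
-/

set_option autoImplicit false
set_option linter.unusedSectionVars false

namespace Cfsg.Agent.H614.HE

open scoped MatrixGroups Nat
open Matrix Finset Cfsg Cfsg.Agent.H583.BR Cfsg.Agent.H199.PslAut
open Cfsg.Agent.H139.Bruhat Cfsg.Agent.H139.BlockCount Cfsg.Agent.H139.FlagInner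
open Cfsg.Agent.ClassicalGeometry.AutPSL.Root Cfsg.Agent.ClassicalGeometry.AutPSL.Auto

universe u v

section

variable {F : Type v} [Field F] [Finite F] {n : ℕ} {A : Type u} [Group A] [Finite A] {p : ℕ} [Fact p.Prime]

/-- the labels -/
def lb (a b c : ℕ) (k : ℕ) : ℕ := if k = 0 then a else if k = 1 then b else c

omit [Finite F] [Finite A] in
theorem label_cases {n : ℕ} (hn : 3 ≤ n) {x y z : ℕ} (hs : ∑ i, cmp n x y z i = n) (i : Fin n) :
    compLabel (cmp n x y z) i = 0 ∨ compLabel (cmp n x y z) i = 1 ∨ compLabel (cmp n x y z) i = 2 := by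
  by_contra h
  push_neg at h
  have h1 := card_label_eq (cmp n x y z) hs ⟨compLabel (cmp n x y z) i, compLabel_lt _ hs i⟩
  rw [cmp, if_neg h.1, if_neg h.2.1, if_neg h.2.2, Finset.card_eq_zero, Finset.filter_eq_empty_iff] at h1
  exact h1 (Finset.mem_univ i) rfl

theorem exists_chars (hn2 : 2 ≤ n) (hp2 : p ≠ 2) (hn : p ≤ n) (h33 : ¬ (p = 3 ∧ n = 3)) (hpq : p ∣ Nat.card F - 1)
    {M : Ideal AlgInt} (hM : IsPModular p M)
    (N : Subgroup A) [N.Normal] (e : N ≃* ProjectiveSpecialLinearGroup (Fin n) F) (P : Sylow p A) :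
    ∃ (ξ : IrrCharacter ↥(N ⊔ (P : Subgroup A))) (ψ : IrrCharacter N), ξ ∈ principalBlock M ↥(N ⊔ (P : Subgroup A)) ∧
      ψ ∈ principalBlock M N ∧
      (∀ x : N, (ξ : ↥(N ⊔ (P : Subgroup A)) → ℂ) ⟨x, le_sup_left (a := N) x.2⟩ = (ψ : N → ℂ) x) ∧
      (charDegree (ξ : ↥(N ⊔ (P : Subgroup A)) → ℂ)).factorization p = 1 ∧
      (charDegree (ψ : N → ℂ)).factorization p = 1 := by
  have hp := (Fact.out : p.Prime)
  have hp3 : 3 ≤ p := by
    have := hp.two_le
    omega
  have hn3 : 3 ≤ n := hp3.trans hn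
  obtain ⟨x, y, z, a, b, c, hs, hyz, hab, hac, hbc, hdiv, hval⟩ := exists_xyz hp2 hn h33
  have hsum : ∑ i, cmp n x y z i = n := by
    have := sum_cmp (x := x) (y := y) (z := z) hn3 (fun _ t => t) (fun _ => rfl)
    rw [this, hs]
  have hl0 : ∀ k : Fin n, (univ.filter fun i : Fin n => compLabel (cmp n x y z) i = k.1).card = cmp n x y z k :=
    card_label_eq _ hsum
  have hlab : p ∣ ∑ i, lb a b c (compLabel (cmp n x y z) i) := by
    rw [sum_label _ hsum, sum_cmp hn3 (fun k t => lb a b c k * t) (fun _ => mul_zero _)]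
    exact hdiv
  have inj : ∀ k k', (k = 0 ∨ k = 1 ∨ k = 2) → (k' = 0 ∨ k' = 1 ∨ k' = 2) →
      ((lb a b c k : ℕ) : ZMod p) = lb a b c k' → k = k' := by
    rintro k k' (rfl | rfl | rfl) (rfl | rfl | rfl) h
    · rfl
    · exact absurd h hab
    · exact absurd h hac
    · exact absurd h hab.symm
    · rfl
    · exact absurd h hbc
    · exact absurd h hac.symm
    · exact absurd h hbc.symm
    · rfl
  have hcard1 : (univ.filter fun i : Fin n => ((lb a b c (compLabel (cmp n x y z) i) : ℕ) : ZMod p) = b).card = y := by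
    refine Eq.trans (congrArg Finset.card (Finset.filter_congr fun i _ => ?_)) (hl0 ⟨1, by omega⟩)
    exact ⟨fun h => inj _ 1 (label_cases hn3 hsum i) (by norm_num) h, fun h => by rw [h]; rfl⟩
  have hcard2 : (univ.filter fun i : Fin n => ((lb a b c (compLabel (cmp n x y z) i) : ℕ) : ZMod p) = c).card = z := by
    refine Eq.trans (congrArg Finset.card (Finset.filter_congr fun i _ => ?_)) (hl0 ⟨2, by omega⟩)
    exact ⟨fun h => inj _ 2 (label_cases hn3 hsum i) (by norm_num) h, fun h => by rw [h]; rfl⟩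
  obtain ⟨ξ, ψ, h1, h2, h3, h4, h5⟩ := pre hn2 hp2 hpq hM N e P (cmp n x y z) hsum (lb a b c) hlab (by
    intro w hw i
    exact inj _ _ (label_cases hn3 hsum _) (label_cases hn3 hsum _)
      (shift (fun i : Fin n => ((lb a b c (compLabel (cmp n x y z) i) : ℕ) : ZMod p)) w hw b c
        (by rw [hcard1, hcard2]; exact hyz) i))
  have hv : (parabolicGL n F (cmp n x y z)).index.factorization p = 1 := by
    rw [Nat.factorization_def _ hp]
    have h6 := val_index (F := F) hp2 hpq (cmp n x y z) hsum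
    rw [sum_cmp hn3 (fun _ t => padicValNat p t !) (fun _ => by simp)] at h6
    omega
  exact ⟨ξ, ψ, h1, h2, h3, by rw [h4, hv], by rw [h5, hv]⟩

end

end Cfsg.Agent.H614.HE
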